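import Mathlib

/-! helper92: vocabulary for row S1606 (`M22` has no subgroup of index 56 or 210). -/

set_option autoImplicit false

namespace Cfsg.Agent.Lib.Helper92.M22

/-- the length of the orbit of `c` under the stabiliser of `a` -/
noncomputable def sz (G : Type*) {X : Type*} [Group G] [MulAction G X] (a c : X) : ℕ :=
  Nat.card ↥(MulAction.orbit ↥(MulAction.stabilizer G a) c)

/-- the orbital graph of the suborbit of length 6 -/
def Adj (G : Type*) {X : Type*} [Group G] [MulAction G X] (a c : X) : Prop :=
  a ≠ c ∧ sz G a c = 6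

/-- a group of order 7920 acting on 22 points like a subgroup of `M22` -/
structure Hyp (G X : Type*) [Group G] [MulAction G X] : Prop where
  cardG : Nat.card G = 7920
  cardX : Nat.card X = 22
  h11 : ∀ g : G, orderOf g = 11 → ∀ x : X, g • x ≠ x
  h5 : ∀ g : G, orderOf g = 5 → Nat.card {x : X // g • x = x} = 2
  h960 : ∀ a c : X, a ≠ c →
    Nat.card ↥(MulAction.stabilizer G a ⊓ MulAction.stabilizer G c) ∣ 960

end Cfsg.Agent.Lib.Helper92.M22
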