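import Mathlib
import Cfsg.Agent.Lib.Helper7.M24Fix
import Cfsg.Agent.Lib.Helper92.Ree.F2
import Cfsg.Agent.Lib.Helper92.M22.Defs

/-! helper92 farm M22 (S1606), piece APP (proved by helper22). -/

set_option autoImplicit false

namespace Cfsg.Agent.Lib.Helper92.M22

open Cfsg Cfsg.Agent.Lib.Helper27 Cfsg.Agent.Lib.Helper7

/-- the 22 remaining points -/
abbrev APP_X : Type := {x : GolayPt // x ≠ pt 23 ∧ x ≠ pt 0}

theorem APP_fix23 {K : Subgroup (Equiv.Perm GolayPt)} (hK : K ≤ fixer L2) (k : K) :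
    (k : Equiv.Perm GolayPt) (pt 23) = pt 23 :=
  fixer_fix (hK k.2) (by norm_num) (by simp [L2])

theorem APP_fix0 {K : Subgroup (Equiv.Perm GolayPt)} (hK : K ≤ fixer L2) (k : K) :
    (k : Equiv.Perm GolayPt) (pt 0) = pt 0 :=
  fixer_fix (hK k.2) (by norm_num) (by simp [L2])

/-- the action of `K` on the 22 points -/
@[reducible] def APP_act (K : Subgroup (Equiv.Perm GolayPt)) (hK : K ≤ fixer L2) : MulAction K APP_X where
  smul k x := ⟨(k : Equiv.Perm GolayPt) x.1,
    fun h => x.2.1 ((k : Equiv.Perm GolayPt).injective (h.trans (APP_fix23 hK k).symm)),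
    fun h => x.2.2 ((k : Equiv.Perm GolayPt).injective (h.trans (APP_fix0 hK k).symm))⟩
  one_smul _ := Subtype.ext rfl
  mul_smul _ _ _ := Subtype.ext rfl

theorem APP_smul_iff (K : Subgroup (Equiv.Perm GolayPt)) (hK : K ≤ fixer L2) (k : K) (x : APP_X) :
    (APP_act K hK).smul k x = x ↔ (k : Equiv.Perm GolayPt) x.1 = x.1 :=
  ⟨fun h => congrArg Subtype.val h, fun h => Subtype.ext h⟩

theorem APP_cardX : Nat.card APP_X = 22 := by
  rw [Nat.card_eq_fintype_card]
  decide +kernel

theorem APP_pt_ne : pt 23 ≠ pt 0 := by decide +kernel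

theorem exists_hyp (K : Subgroup (Equiv.Perm GolayPt)) (hK : K ≤ fixer L2)
    (hc : Nat.card K = 7920) :
    ∃ (X : Type) (_ : Finite X) (_ : MulAction K X), Hyp K X := by
  refine ⟨APP_X, inferInstance, APP_act K hK, ?_⟩
  letI := APP_act K hK
  have hM : ∀ k : K, (k : Equiv.Perm GolayPt) ∈ M24 := fun k => fixer_le_M24 L2 (hK k.2)
  refine ⟨hc, APP_cardX, ?_, ?_, ?_⟩
  · intro g hg x hx
    have hx' : (g : Equiv.Perm GolayPt) x.1 = x.1 := (APP_smul_iff K hK g x).1 hx
    have h2 := card_fixedPts_11 (hM g) (by rw [Subgroup.orderOf_coe]; exact hg)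
    have hsub : ({pt 23, pt 0, x.1} : Finset GolayPt) ⊆ fixedPts (g : Equiv.Perm GolayPt) := by
      intro y hy
      rw [mem_fixedPts]
      simp only [Finset.mem_insert, Finset.mem_singleton] at hy
      rcases hy with rfl | rfl | rfl
      · exact APP_fix23 hK g
      · exact APP_fix0 hK g
      · exact hx'
    have h3 : ({pt 23, pt 0, x.1} : Finset GolayPt).card = 3 := by
      rw [Finset.card_insert_of_notMem, Finset.card_insert_of_notMem, Finset.card_singleton]
      · rw [Finset.mem_singleton]; exact fun h => x.2.2 h.symm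
      · simp only [Finset.mem_insert, Finset.mem_singleton]
        rintro (h | h)
        · exact APP_pt_ne h
        · exact x.2.1 h.symm
    have := Finset.card_le_card hsub
    omega
  · intro g hg
    have h4 := card_fixedPts_5 (hM g) (by rw [Subgroup.orderOf_coe]; exact hg)
    let F : Finset GolayPt := ((fixedPts (g : Equiv.Perm GolayPt)).erase (pt 23)).erase (pt 0)
    have hF : F.card = 2 := by
      have m1 : pt 23 ∈ fixedPts (g : Equiv.Perm GolayPt) := mem_fixedPts.2 (APP_fix23 hK g)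
      have m2 : pt 0 ∈ (fixedPts (g : Equiv.Perm GolayPt)).erase (pt 23) :=
        Finset.mem_erase.2 ⟨fun h => APP_pt_ne h.symm, mem_fixedPts.2 (APP_fix0 hK g)⟩
      show (((fixedPts (g : Equiv.Perm GolayPt)).erase (pt 23)).erase (pt 0)).card = 2
      rw [Finset.card_erase_of_mem m2, Finset.card_erase_of_mem m1, h4]
    let e : {x : APP_X // g • x = x} ≃ {y : GolayPt // y ∈ F} :=
      { toFun := fun x => ⟨x.1.1, Finset.mem_erase.2 ⟨x.1.2.2, Finset.mem_erase.2 ⟨x.1.2.1,
          mem_fixedPts.2 ((APP_smul_iff K hK g x.1).1 x.2)⟩⟩⟩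
        invFun := fun y => ⟨⟨y.1, (Finset.mem_erase.1 (Finset.mem_erase.1 y.2).2).1,
          (Finset.mem_erase.1 y.2).1⟩, (APP_smul_iff K hK g _).2
            (mem_fixedPts.1 (Finset.mem_erase.1 (Finset.mem_erase.1 y.2).2).2)⟩
        left_inv := fun _ => rfl
        right_inv := fun _ => rfl }
    rw [Nat.card_congr e, Nat.card_eq_fintype_card, Fintype.card_coe, hF]
  · intro a c hac
    obtain ⟨g, hg, g1, g2, g3, g4⟩ := std4 (x1 := pt 23) (x2 := pt 0) (x3 := a.1) (x4 := c.1)
      APP_pt_ne (fun h => a.2.1 h.symm) (fun h => c.2.1 h.symm) (fun h => a.2.2 h.symm)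
      (fun h => c.2.2 h.symm) (fun h => hac (Subtype.ext h))
    have hmem : ∀ k : ↥(MulAction.stabilizer K a ⊓ MulAction.stabilizer K c),
        g * (k.1 : Equiv.Perm GolayPt) * g⁻¹ ∈ fixer L4 := by
      intro k
      have ka : (k.1 : Equiv.Perm GolayPt) a.1 = a.1 :=
        (APP_smul_iff K hK k.1 a).1 (MulAction.mem_stabilizer_iff.1 k.2.1)
      have kc : (k.1 : Equiv.Perm GolayPt) c.1 = c.1 :=
        (APP_smul_iff K hK k.1 c).1 (MulAction.mem_stabilizer_iff.1 k.2.2)
      have i1 : g⁻¹ (pt 23) = pt 23 := by rw [Equiv.Perm.inv_eq_iff_eq]; exact g1.symm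
      have i2 : g⁻¹ (pt 0) = pt 0 := by rw [Equiv.Perm.inv_eq_iff_eq]; exact g2.symm
      have i3 : g⁻¹ (pt 1) = a.1 := by rw [Equiv.Perm.inv_eq_iff_eq]; exact g3.symm
      have i4 : g⁻¹ (pt 2) = c.1 := by rw [Equiv.Perm.inv_eq_iff_eq]; exact g4.symm
      have := mem_fixer_of_pts (g := g * (k.1 : Equiv.Perm GolayPt) * g⁻¹)
        (M24.mul_mem (M24.mul_mem hg (hM k.1)) (M24.inv_mem hg)) [2, 1, 0, 23] (by
          intro b hb
          simp only [List.mem_cons, List.not_mem_nil, or_false] at hb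
          rcases hb with rfl | rfl | rfl | rfl
          · exact ⟨by norm_num, by
              rw [Equiv.Perm.mul_apply, Equiv.Perm.mul_apply, i4, kc, g4]⟩
          · exact ⟨by norm_num, by
              rw [Equiv.Perm.mul_apply, Equiv.Perm.mul_apply, i3, ka, g3]⟩
          · exact ⟨by norm_num, by
              rw [Equiv.Perm.mul_apply, Equiv.Perm.mul_apply, i2, APP_fix0 hK k.1, g2]⟩
          · exact ⟨by norm_num, by
              rw [Equiv.Perm.mul_apply, Equiv.Perm.mul_apply, i1, APP_fix23 hK k.1, g1]⟩)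
      exact this
    let f : ↥(MulAction.stabilizer K a ⊓ MulAction.stabilizer K c) →* ↥(fixer L4) :=
      { toFun := fun k => ⟨g * (k.1 : Equiv.Perm GolayPt) * g⁻¹, hmem k⟩
        map_one' := Subtype.ext (by simp)
        map_mul' := fun x y => Subtype.ext (by simp [mul_assoc]) }
    have hf : Function.Injective f := by
      intro x y hxy
      have h1 : g * (x.1 : Equiv.Perm GolayPt) * g⁻¹ = g * (y.1 : Equiv.Perm GolayPt) * g⁻¹ :=
        congrArg Subtype.val hxy
      have h2 : (x.1 : Equiv.Perm GolayPt) = y.1 := mul_left_cancel (mul_right_cancel h1)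
      exact Subtype.ext (Subtype.ext h2)
    have := Subgroup.card_dvd_of_injective f hf
    rwa [card_fixer_L4] at this

end Cfsg.Agent.Lib.Helper92.M22
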