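import Mathlib
import Cfsg.Agent.Lib.Helper7.M24Fix
import Cfsg.Agent.Lib.Helper92.Ree.F2
import Cfsg.Agent.Lib.Helper92.M22.Defs

set_option autoImplicit false

namespace Cfsg.Agent.Lib.Helper92.M22

open Cfsg Cfsg.Agent.Lib.Helper27 Cfsg.Agent.Lib.Helper7

/-- an element commuting with `t`, fixing `Fix t` and one more point is trivial -/
theorem C11_eq_one {t d : Equiv.Perm GolayPt} (ht : t ∈ M24) (hd : d ∈ M24) (h11 : orderOf t = 11)
    (hcomm : d * t = t * d) (hfix : ∀ x, t x = x → d x = x) {y : GolayPt} (hy : t y ≠ y)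
    (hdy : d y = y) : d = 1 := by
  by_contra hne
  have : Fact (Nat.Prime 11) := ⟨by norm_num⟩
  have hle := card_fixedPts_le hd hne
  have hinv : ∀ x ∈ fixedPts d, t x ∈ fixedPts d := by
    intro x hx
    rw [mem_fixedPts] at hx ⊢
    have := congrArg (fun f : Equiv.Perm GolayPt => f x) hcomm
    simp only [Equiv.Perm.mul_apply] at this
    rw [this, hx]
  have hmod := card_modEq_fixed t 11 (by rw [← h11]; exact pow_orderOf_eq_one t) (fixedPts d) hinv
  have hfil : ((fixedPts d).filter fun x => t x = x) = fixedPts t := by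
    ext x
    rw [Finset.mem_filter, mem_fixedPts, mem_fixedPts]
    exact ⟨fun h => h.2, fun h => ⟨hfix x h, h⟩⟩
  rw [hfil, card_fixedPts_11 ht h11] at hmod
  have hlt : (fixedPts t).card < (fixedPts d).card := by
    apply Finset.card_lt_card
    refine ⟨fun x hx => ?_, fun h => ?_⟩
    · rw [mem_fixedPts] at hx ⊢
      exact hfix x hx
    · exact hy (mem_fixedPts.1 (h (mem_fixedPts.2 hdy)))
  rw [card_fixedPts_11 ht h11] at hlt
  unfold Nat.ModEq at hmod
  omega

/-- the relative centraliser -/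
def C11_B (t : Equiv.Perm GolayPt) : Subgroup (Equiv.Perm GolayPt) where
  carrier := {b | b ∈ M24 ∧ b * t = t * b ∧ ∀ x, t x = x → b x = x}
  one_mem' := ⟨one_mem _, by simp, fun _ _ => rfl⟩
  mul_mem' := by
    rintro a b ⟨ha, ha2, ha3⟩ ⟨hb, hb2, hb3⟩
    refine ⟨mul_mem ha hb, ?_, fun x hx => ?_⟩
    · rw [mul_assoc, hb2, ← mul_assoc, ha2, mul_assoc]
    · rw [Equiv.Perm.mul_apply, hb3 x hx, ha3 x hx]
  inv_mem' := by
    rintro a ⟨ha, ha2, ha3⟩
    refine ⟨inv_mem ha, ?_, fun x hx => ?_⟩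
    · rw [inv_mul_eq_iff_eq_mul, ← mul_assoc, ha2, mul_assoc, mul_inv_cancel, mul_one]
    · rw [Equiv.Perm.inv_eq_iff_eq, ha3 x hx]

/-- [C11] elements of order 11 are self-centralising -/
theorem cent11 {t c : Equiv.Perm GolayPt} (ht : t ∈ M24) (hc : c ∈ M24) (h11 : orderOf t = 11)
    (hcomm : c * t = t * c) (hfix : ∀ x, t x = x → c x = x) : c ∈ Subgroup.zpowers t := by
  have : Fact (Nat.Prime 11) := ⟨by norm_num⟩
  have : Fact (Nat.Prime 2) := ⟨by norm_num⟩
  have htB : t ∈ C11_B t := ⟨ht, rfl, fun x hx => hx⟩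
  have hcB : c ∈ C11_B t := ⟨hc, hcomm, hfix⟩
  have hzle : Subgroup.zpowers t ≤ C11_B t := by
    rw [Subgroup.zpowers_le]; exact htB
  have hcz : Nat.card (Subgroup.zpowers t) = 11 := by rw [Nat.card_zpowers, h11]
  obtain ⟨x0, hx0⟩ := exists_notMem (fixedPts t) (by rw [card_fixedPts_11 ht h11]; norm_num)
  rw [mem_fixedPts] at hx0
  -- injectivity of evaluation
  have hinj : Function.Injective (fun b : C11_B t =>
      (⟨(b : Equiv.Perm GolayPt) x0, by
        rw [Finset.mem_compl, mem_fixedPts]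
        intro h
        obtain ⟨_, h2, _⟩ := b.2
        have := congrArg (fun f : Equiv.Perm GolayPt => f x0) h2
        simp only [Equiv.Perm.mul_apply] at this
        rw [h] at this
        exact hx0 ((b : Equiv.Perm GolayPt).injective this)⟩ : {x // x ∈ (fixedPts t)ᶜ})) := by
    intro a b hab
    have hab' : (a : Equiv.Perm GolayPt) x0 = (b : Equiv.Perm GolayPt) x0 :=
      congrArg Subtype.val hab
    have hm : (b⁻¹ * a : C11_B t).1 ∈ C11_B t := (b⁻¹ * a).2
    have h1 : ((b⁻¹ * a : C11_B t) : Equiv.Perm GolayPt) = 1 := by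
      refine C11_eq_one ht hm.1 h11 hm.2.1 hm.2.2 hx0 ?_
      simp only [Subgroup.coe_mul, Subgroup.coe_inv, Equiv.Perm.mul_apply]
      rw [hab']; simp
    have h2 : b⁻¹ * a = 1 := Subtype.ext h1
    rw [inv_mul_eq_one] at h2
    exact h2.symm
  have hle22 : Nat.card (C11_B t) ≤ 22 := by
    have := Nat.card_le_card_of_injective _ hinj
    rw [Nat.card_eq_fintype_card (α := {x // x ∈ (fixedPts t)ᶜ}), Fintype.card_coe,
      Finset.card_compl, card_fixedPts_11 ht h11] at this
    have h24 : Fintype.card GolayPt = 24 := by decide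
    omega
  have hdvd : 11 ∣ Nat.card (C11_B t) := by
    rw [← hcz]; exact Subgroup.card_dvd_of_le hzle
  have hpos : 0 < Nat.card (C11_B t) := Nat.card_pos
  have hodd : ¬ 2 ∣ Nat.card (C11_B t) := by
    intro h2
    obtain ⟨u, hu⟩ := exists_prime_orderOf_dvd_card' (G := C11_B t) 2 h2
    have hu' : orderOf (u : Equiv.Perm GolayPt) = 2 := by rw [Subgroup.orderOf_coe, hu]
    obtain ⟨hu1, hu2, hu3⟩ := u.2
    have hcard2 := card_fixedPts_11 ht h11
    obtain ⟨z, hz⟩ : (fixedPts t).Nonempty := Finset.card_pos.1 (by omega)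
    have h8 := Cfsg.Agent.Lib.Helper92.Ree.card_fixedPts_2 hu1 hu' z (hu3 z (mem_fixedPts.1 hz))
    obtain ⟨y, hy1, hy2⟩ : ∃ y ∈ fixedPts (u : Equiv.Perm GolayPt), y ∉ fixedPts t := by
      by_contra hcon
      push Not at hcon
      have := Finset.card_le_card (fun y hy => hcon y hy : fixedPts (u : Equiv.Perm GolayPt) ⊆ fixedPts t)
      omega
    rw [mem_fixedPts] at hy1 hy2
    have := C11_eq_one ht hu1 h11 hu2 hu3 hy2 hy1
    rw [this, orderOf_one] at hu'
    omega
  have hcB11 : Nat.card (C11_B t) = 11 := by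
    obtain ⟨k, hk⟩ := hdvd
    have hk2 : k = 1 ∨ k = 2 := by omega
    rcases hk2 with rfl | rfl
    · omega
    · exact absurd ⟨11, by omega⟩ hodd
  have heq : Subgroup.zpowers t = C11_B t :=
    Subgroup.eq_of_le_of_card_ge hzle (by rw [hcz, hcB11])
  rw [heq]; exact hcB

end Cfsg.Agent.Lib.Helper92.M22
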