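import Mathlib

set_option autoImplicit false

namespace Cfsg.Agent.Lib.Helper92.M22

/-- [N11] Sylow's theorem for the prime 11 -/
theorem no_2112_abs {K : Type*} [Group K] [Finite K] (hc : Nat.card K = 2112)
    (h : ∀ t c : K, orderOf t = 11 → c * t = t * c → c ∈ Subgroup.zpowers t) : False := by
  have : Fact (Nat.Prime 11) := ⟨by norm_num⟩
  let P : Sylow 11 K := default
  have hfac : (2112 : ℕ).factorization 11 = 1 := by
    have h1 : (2112 : ℕ) = 11 ^ 1 * 192 := by norm_num
    rw [h1, Nat.factorization_mul (by norm_num) (by norm_num)]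
    have h2 : (192 : ℕ).factorization 11 = 0 :=
      Nat.factorization_eq_zero_of_not_dvd (by norm_num)
    have h3 : (11 : ℕ).factorization 11 = 1 :=
      Nat.Prime.factorization_self (by norm_num)
    simp [h2, h3]
  have hP : Nat.card (P : Subgroup K) = 11 := by
    rw [Sylow.card_eq_multiplicity, hc, hfac]; norm_num
  have hcyc : IsCyclic (P : Subgroup K) := isCyclic_of_prime_card hP
  obtain ⟨g, hg⟩ := hcyc.exists_generator
  have hog : orderOf g = 11 := by
    rw [orderOf_eq_card_of_forall_mem_zpowers hg, hP]
  have hot : orderOf (g : K) = 11 := by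
    rw [Subgroup.orderOf_coe, hog]
  -- the centraliser of `P` is inside `P`
  have hcent : Subgroup.centralizer ((P : Subgroup K) : Set K) ≤ (P : Subgroup K) := by
    intro c hcc
    have h1 : c * (g : K) = (g : K) * c := by
      have := Subgroup.mem_centralizer_iff.mp hcc (g : K) g.2
      exact this.symm
    have h2 := h (g : K) c hot h1
    exact (Subgroup.zpowers_le.mpr g.2) h2
  have key := Subgroup.card_dvd_of_injective _
    (QuotientGroup.kerLift_injective (P : Subgroup K).normalizerMonoidHom)
  rw [Subgroup.normalizerMonoidHom_ker, ← Subgroup.index, IsCyclic.card_mulAut, hP] at key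
  have htot : Nat.totient 11 = 10 := by
    rw [Nat.totient_prime (by norm_num)]
  rw [htot] at key
  set N : Subgroup K := Subgroup.normalizer ((P : Subgroup K) : Set K) with hN
  -- card of the kernel divides 11
  have hker : Nat.card ((Subgroup.centralizer ((P : Subgroup K) : Set K)).subgroupOf N) ∣ 11 := by
    have h1 : (Subgroup.centralizer ((P : Subgroup K) : Set K)).subgroupOf N
        ≤ (P : Subgroup K).subgroupOf N := Subgroup.subgroupOf_mono N hcent
    have h2 := Subgroup.card_dvd_of_le h1
    have h3 : Nat.card ((P : Subgroup K).subgroupOf N) = 11 := by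
      exact (Nat.card_congr (Subgroup.subgroupOfEquivOfLe Subgroup.le_normalizer).toEquiv).trans hP
    rwa [h3] at h2
  have hNcard : Nat.card N ∣ 110 := by
    rw [← Subgroup.card_mul_index ((Subgroup.centralizer ((P : Subgroup K) : Set K)).subgroupOf N)]
    exact mul_dvd_mul hker key
  have hidx : Nat.card N * N.index = 2112 := by
    rw [Subgroup.card_mul_index, hc]
  have hmod : N.index ≡ 1 [MOD 11] := by
    have := card_sylow_modEq_one 11 K
    rwa [Sylow.card_eq_index_normalizer P] at this
  have h22 : Nat.card N ∣ 22 := by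
    have h1 : Nat.card N ∣ 2112 := ⟨_, hidx.symm⟩
    have := Nat.dvd_gcd hNcard h1
    norm_num at this
    exact this
  have hmem : Nat.card N ∈ Nat.divisors 22 := Nat.mem_divisors.mpr ⟨h22, by norm_num⟩
  have hdiv : Nat.divisors 22 = {1, 2, 11, 22} := by decide +kernel
  rw [hdiv] at hmem
  simp only [Finset.mem_insert, Finset.mem_singleton] at hmem
  unfold Nat.ModEq at hmod
  rcases hmem with h1 | h1 | h1 | h1 <;> rw [h1] at hidx <;> omega

end Cfsg.Agent.Lib.Helper92.M22
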