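import Mathlib
import Cfsg.Agent.Lib.Helper7.M24Fix
import Cfsg.Agent.Lib.Helper92.Ree.F2
import Cfsg.Agent.Lib.Helper92.M22.Defs
import Cfsg.Agent.Lib.Helper92.M22.C11
import Cfsg.Agent.Lib.Helper92.M22.N11

set_option autoImplicit false

namespace Cfsg.Agent.Lib.Helper92.M22

open Cfsg Cfsg.Agent.Lib.Helper27 Cfsg.Agent.Lib.Helper7

/-- [K210] -/
theorem no_2112 (K : Subgroup (Equiv.Perm GolayPt)) (hK : K ≤ fixer L2) :
    Nat.card K ≠ 2112 := by
  intro hc
  refine no_2112_abs (K := K) hc ?_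
  intro t c h11 hcomm
  have ht : (t : Equiv.Perm GolayPt) ∈ fixer L2 := hK t.2
  have hcc : (c : Equiv.Perm GolayPt) ∈ fixer L2 := hK c.2
  have h11' : orderOf (t : Equiv.Perm GolayPt) = 11 := by rw [Subgroup.orderOf_coe, h11]
  have hcomm' : (c : Equiv.Perm GolayPt) * t = t * c := by
    have := congrArg Subtype.val hcomm
    simpa using this
  have ht0 : (t : Equiv.Perm GolayPt) (pt 0) = pt 0 :=
    fixer_fix ht (by norm_num) (by simp [L2])
  have ht23 : (t : Equiv.Perm GolayPt) (pt 23) = pt 23 :=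
    fixer_fix ht (by norm_num) (by simp [L2])
  have hc0 : (c : Equiv.Perm GolayPt) (pt 0) = pt 0 :=
    fixer_fix hcc (by norm_num) (by simp [L2])
  have hc23 : (c : Equiv.Perm GolayPt) (pt 23) = pt 23 :=
    fixer_fix hcc (by norm_num) (by simp [L2])
  have hne : pt 0 ≠ pt 23 := by decide
  have hcard := card_fixedPts_11 ht.1 h11'
  have hsub : ({pt 0, pt 23} : Finset GolayPt) ⊆ fixedPts (t : Equiv.Perm GolayPt) := by
    intro x hx
    rw [Finset.mem_insert, Finset.mem_singleton] at hx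
    rw [mem_fixedPts]
    rcases hx with rfl | rfl
    · exact ht0
    · exact ht23
  have heq : ({pt 0, pt 23} : Finset GolayPt) = fixedPts (t : Equiv.Perm GolayPt) :=
    Finset.eq_of_subset_of_card_le hsub (by rw [hcard, Finset.card_pair hne])
  have hfix : ∀ x, (t : Equiv.Perm GolayPt) x = x → (c : Equiv.Perm GolayPt) x = x := by
    intro x hx
    have : x ∈ ({pt 0, pt 23} : Finset GolayPt) := by rw [heq, mem_fixedPts]; exact hx
    rw [Finset.mem_insert, Finset.mem_singleton] at this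
    rcases this with rfl | rfl
    · exact hc0
    · exact hc23
  have hmem := cent11 ht.1 hcc.1 h11' hcomm' hfix
  obtain ⟨k, hk⟩ := Subgroup.mem_zpowers_iff.1 hmem
  refine Subgroup.mem_zpowers_iff.2 ⟨k, Subtype.ext ?_⟩
  rw [Subgroup.coe_zpow]; exact hk

end Cfsg.Agent.Lib.Helper92.M22
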