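import Mathlib
import Cfsg.Agent.Lib.Helper7.M24Fix
import Cfsg.Agent.Lib.Helper92.M22.Defs

set_option autoImplicit false

namespace Cfsg.Agent.Lib.Helper92.M22

open Cfsg Cfsg.Agent.Lib.Helper27 Cfsg.Agent.Lib.Helper7

/-- [RED] reduction to subgroups of `fixer L2` -/
theorem red (p q : GolayPt) (hpq : p ≠ q)
    (H : Subgroup ↥(MulAction.stabilizer M24 p ⊓ MulAction.stabilizer M24 q)) :
    ∃ K : Subgroup (Equiv.Perm GolayPt), K ≤ fixer L2 ∧ Nat.card K * H.index = 443520 := by
  obtain ⟨g, hg, hgp, hgq⟩ := std2 hpq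
  let φ : ↥(MulAction.stabilizer M24 p ⊓ MulAction.stabilizer M24 q) →* Equiv.Perm GolayPt :=
    (MulAut.conj g).toMonoidHom.comp
      (M24.subtype.comp (MulAction.stabilizer M24 p ⊓ MulAction.stabilizer M24 q).subtype)
  have hφv : ∀ s : ↥(MulAction.stabilizer M24 p ⊓ MulAction.stabilizer M24 q),
      φ s = g * ((s : ↥M24) : Equiv.Perm GolayPt) * g⁻¹ := fun s => rfl
  have hφ : Function.Injective φ := by
    intro a b hab
    rw [hφv, hφv] at hab
    have : ((a : ↥M24) : Equiv.Perm GolayPt) = ((b : ↥M24) : Equiv.Perm GolayPt) := by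
      simpa using hab
    exact Subtype.ext (Subtype.ext this)
  have hfixp : ∀ s : ↥(MulAction.stabilizer M24 p ⊓ MulAction.stabilizer M24 q),
      ((s : ↥M24) : Equiv.Perm GolayPt) p = p := fun s =>
    MulAction.mem_stabilizer_iff.1 (Subgroup.mem_inf.1 s.2).1
  have hfixq : ∀ s : ↥(MulAction.stabilizer M24 p ⊓ MulAction.stabilizer M24 q),
      ((s : ↥M24) : Equiv.Perm GolayPt) q = q := fun s =>
    MulAction.mem_stabilizer_iff.1 (Subgroup.mem_inf.1 s.2).2
  have hgi_p : g⁻¹ (pt 23) = p := by rw [← hgp]; simp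
  have hgi_q : g⁻¹ (pt 0) = q := by rw [← hgq]; simp
  have hmem : ∀ s : ↥(MulAction.stabilizer M24 p ⊓ MulAction.stabilizer M24 q),
      φ s ∈ fixer L2 := by
    intro s
    have h1 : φ s ∈ M24 := by
      rw [hφv]
      exact M24.mul_mem (M24.mul_mem hg (s : ↥M24).2) (M24.inv_mem hg)
    have := mem_fixer_of_pts h1 [0, 23] (by
      intro b hb
      simp only [List.mem_cons, List.not_mem_nil, or_false] at hb
      rcases hb with rfl | rfl
      · refine ⟨by norm_num, ?_⟩
        rw [hφv, Equiv.Perm.mul_apply, Equiv.Perm.mul_apply, hgi_q, hfixq, hgq]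
      · refine ⟨by norm_num, ?_⟩
        rw [hφv, Equiv.Perm.mul_apply, Equiv.Perm.mul_apply, hgi_p, hfixp, hgp])
    exact this
  have hrange : φ.range = fixer L2 := by
    apply le_antisymm
    · rintro _ ⟨s, rfl⟩
      exact hmem s
    · intro k hk
      have hk1 : k ∈ M24 := hk.1
      have hk23 : k (pt 23) = pt 23 := fixer_fix hk (by norm_num) (by simp [L2])
      have hk0 : k (pt 0) = pt 0 := fixer_fix hk (by norm_num) (by simp [L2])
      have hh : g⁻¹ * k * g ∈ M24 := M24.mul_mem (M24.mul_mem (M24.inv_mem hg) hk1) hg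
      have hs : (⟨g⁻¹ * k * g, hh⟩ : ↥M24) ∈
          MulAction.stabilizer M24 p ⊓ MulAction.stabilizer M24 q := by
        refine Subgroup.mem_inf.2
          ⟨MulAction.mem_stabilizer_iff.2 ?_, MulAction.mem_stabilizer_iff.2 ?_⟩
        · show (g⁻¹ * k * g) p = p
          rw [Equiv.Perm.mul_apply, Equiv.Perm.mul_apply, hgp, hk23, hgi_p]
        · show (g⁻¹ * k * g) q = q
          rw [Equiv.Perm.mul_apply, Equiv.Perm.mul_apply, hgq, hk0, hgi_q]
      refine ⟨⟨_, hs⟩, ?_⟩
      rw [hφv]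
      show g * (g⁻¹ * k * g) * g⁻¹ = k
      group
  have hcardS : Nat.card ↥(MulAction.stabilizer M24 p ⊓ MulAction.stabilizer M24 q) = 443520 := by
    rw [← card_fixer_L2, ← hrange]
    exact Nat.card_congr (MonoidHom.ofInjective hφ).toEquiv
  refine ⟨H.map φ, ?_, ?_⟩
  · rintro _ ⟨s, -, rfl⟩
    exact hmem s
  · rw [Subgroup.card_map_of_injective hφ, Subgroup.card_mul_index, hcardS]

end Cfsg.Agent.Lib.Helper92.M22
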