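import Mathlib
import Cfsg.Agent.Lib.Helper92.M22.Defs

set_option autoImplicit false

namespace Cfsg.Agent.Lib.Helper92.M22

theorem S1_card {X : Type*} [Fintype X] (p : X → Prop) [DecidablePred p] :
    Nat.card {c // p c} = (Finset.univ.filter p).card := by
  rw [Nat.card_eq_fintype_card, Fintype.card_subtype]

section srg

variable {X : Type*} [Finite X] (hX : Nat.card X = 22) (R : X → X → Prop)
  (hsymm : ∀ a c, R a c → R c a) (hirr : ∀ a, ¬ R a a) (hk : ∀ a, Nat.card {c // R a c} = 6)
  (l m : ℕ) (hl : ∀ a c, R a c → Nat.card {d // R a d ∧ R c d} = l)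
  (hm : ∀ a c, a ≠ c → ¬ R a c → Nat.card {d // R a d ∧ R c d} = m)

include hX hsymm hirr hk hl hm

/-- [S1] counting paths of length 2 from a fixed vertex -/
theorem srg_count : 6 * l + 15 * m = 30 := by
  classical
  have := Fintype.ofFinite X
  have hne : Nonempty X := by
    by_contra hh
    rw [not_nonempty_iff] at hh
    rw [Nat.card_of_isEmpty] at hX
    omega
  obtain ⟨a⟩ := hne
  have hk' : ∀ x, (Finset.univ.filter (fun c => R x c)).card = 6 := fun x => by
    rw [← S1_card]; exact hk x
  have hXc : (Finset.univ : Finset X).card = 22 := by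
    rw [Finset.card_univ, ← Nat.card_eq_fintype_card]; exact hX
  have key : ∑ x : X, ∑ c : X, (if R a x ∧ R x c ∧ c ≠ a then 1 else 0) =
      ∑ c : X, ∑ x : X, (if R a x ∧ R x c ∧ c ≠ a then 1 else 0) := Finset.sum_comm
  have hL : ∀ x : X, ∑ c : X, (if R a x ∧ R x c ∧ c ≠ a then 1 else 0) =
      if R a x then 5 else 0 := by
    intro x
    by_cases hx : R a x
    · simp only [hx, true_and, if_true]
      rw [← Finset.card_filter]
      have h1 : Finset.univ.filter (fun c => R x c ∧ c ≠ a) =
          (Finset.univ.filter (fun c => R x c)).erase a := by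
        ext c; simp [and_comm]
      rw [h1, Finset.card_erase_of_mem (by simp [hsymm a x hx]), hk']
    · simp [hx]
  have hR : ∀ c : X, ∑ x : X, (if R a x ∧ R x c ∧ c ≠ a then 1 else 0) =
      (if R a c then l else 0) + (if ¬ (c = a ∨ R a c) then m else 0) := by
    intro c
    rw [← Finset.card_filter]
    by_cases hca : c = a
    · subst hca
      simp [hirr c]
    · have h1 : Finset.univ.filter (fun x => R a x ∧ R x c ∧ c ≠ a) =
          Finset.univ.filter (fun x => R a x ∧ R c x) := by
        ext x
        simp only [Finset.mem_filter, Finset.mem_univ, true_and]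
        constructor
        · rintro ⟨h1, h2, _⟩; exact ⟨h1, hsymm _ _ h2⟩
        · rintro ⟨h1, h2⟩; exact ⟨h1, hsymm _ _ h2, hca⟩
      rw [h1, ← S1_card]
      by_cases hac : R a c
      · rw [hl a c hac]; simp [hac]
      · rw [hm a c (Ne.symm hca) hac]; simp [hac, hca]
  rw [Finset.sum_congr rfl (fun x _ => hL x), Finset.sum_congr rfl (fun c _ => hR c),
    Finset.sum_add_distrib, ← Finset.sum_filter, ← Finset.sum_filter, ← Finset.sum_filter,
    Finset.sum_const, Finset.sum_const, Finset.sum_const, hk'] at key
  have h7 : (Finset.univ.filter (fun c => c = a ∨ R a c)).card = 7 := by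
    have h1 : Finset.univ.filter (fun c => c = a ∨ R a c) =
        insert a (Finset.univ.filter (fun c => R a c)) := by
      ext c; simp
    rw [h1, Finset.card_insert_of_notMem (by simp [hirr a]), hk']
  have h15 : (Finset.univ.filter (fun c => ¬ (c = a ∨ R a c))).card = 15 := by
    have := Finset.card_filter_add_card_filter_not (s := (Finset.univ : Finset X))
      (fun c => c = a ∨ R a c)
    rw [h7, hXc] at this
    omega
  rw [h15] at key
  simp only [smul_eq_mul] at key
  omega

end srg

end Cfsg.Agent.Lib.Helper92.M22
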