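import Mathlib
import Cfsg.Agent.Lib.Helper92.M22.Defs

set_option autoImplicit false

namespace Cfsg.Agent.Lib.Helper92.M22

section srg

variable {X : Type*} [Finite X] (hX : Nat.card X = 22) (R : X → X → Prop)
  (hsymm : ∀ a c, R a c → R c a) (hirr : ∀ a, ¬ R a a) (hk : ∀ a, Nat.card {c // R a c} = 6)
  (l m : ℕ) (hl : ∀ a c, R a c → Nat.card {d // R a d ∧ R c d} = l)
  (hm : ∀ a c, a ≠ c → ¬ R a c → Nat.card {d // R a d ∧ R c d} = m)

include hX hsymm hirr hk hl hm

/-- [S2] `(A + 1)^2 = 5 + 2 J` has determinant `5^21 * 49`, not a square -/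
theorem srg_02 (h0 : l = 0) (h2 : m = 2) : False := by
  classical
  haveI := Fintype.ofFinite X
  subst h0 h2
  have hXc : Fintype.card X = 22 := by rw [← Nat.card_eq_fintype_card]; exact hX
  set A : Matrix X X ℚ := Matrix.of fun a c => if R a c then 1 else 0 with hA
  have hcount : ∀ a c, (A * A) a c = (Nat.card {d // R a d ∧ R c d} : ℚ) := by
    intro a c
    rw [Matrix.mul_apply, Nat.card_eq_fintype_card, Fintype.card_subtype, Finset.card_filter]
    push_cast
    apply Finset.sum_congr rfl
    intro d _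
    simp only [hA, Matrix.of_apply]
    by_cases h1 : R a d <;> by_cases h2 : R c d
    · simp [h1, h2, hsymm c d h2]
    · have : ¬ R d c := fun h => h2 (hsymm d c h)
      simp [h1, h2, this]
    · simp [h1]
    · simp [h1]
  have hsq : (A + 1) * (A + 1) = (5 : ℚ) • (1 + Matrix.replicateCol Unit (fun _ : X => (2 / 5 : ℚ)) *
      Matrix.replicateRow Unit (fun _ : X => (1 : ℚ))) := by
    ext a c
    rw [add_mul, mul_add, mul_add, Matrix.mul_one, Matrix.one_mul, Matrix.one_mul]
    simp only [Matrix.add_apply, Matrix.smul_apply, hcount, Matrix.mul_apply, smul_eq_mul,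
      Matrix.replicateCol_apply, Matrix.replicateRow_apply, Finset.univ_unique,
      Finset.sum_singleton]
    by_cases hac : a = c
    · subst hac
      have h6 : Nat.card {d // R a d ∧ R a d} = 6 := by
        rw [← hk a]
        exact Nat.card_congr (Equiv.subtypeEquivRight (fun d => and_self_iff))
      rw [h6, Matrix.one_apply_eq, hA, Matrix.of_apply, if_neg (hirr a)]
      norm_num
    · by_cases hR : R a c
      · rw [hl a c hR, Matrix.one_apply_ne hac, hA, Matrix.of_apply, if_pos hR]
        norm_num
      · rw [hm a c hac hR, Matrix.one_apply_ne hac, hA, Matrix.of_apply, if_neg hR]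
        norm_num
  have hdet : (A + 1).det * (A + 1).det = 5 ^ 21 * 49 := by
    rw [← Matrix.det_mul, hsq, Matrix.det_smul, Matrix.det_one_add_replicateCol_mul_replicateRow,
      hXc]
    simp only [dotProduct, Finset.sum_const, Finset.card_univ, hXc]
    norm_num
  have h5 : IsSquare ((5 : ℕ) : ℚ) := by
    refine ⟨(A + 1).det / (5 ^ 10 * 7), ?_⟩
    rw [div_mul_div_comm, hdet]
    norm_num
  rw [Rat.isSquare_natCast_iff] at h5
  obtain ⟨r, hr⟩ := h5
  have hr2 : r ≤ 2 := by nlinarith
  interval_cases r <;> omega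

end srg

end Cfsg.Agent.Lib.Helper92.M22
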