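import Mathlib
import Cfsg.Agent.Lib.Helper92.M22.Defs

set_option autoImplicit false
set_option linter.unusedSectionVars false
set_option linter.unusedVariables false

namespace Cfsg.Agent.Lib.Helper92.M22

theorem S3_card {X : Type*} [Fintype X] (p : X → Prop) [DecidablePred p] :
    Nat.card {c // p c} = (Finset.univ.filter p).card := by
  rw [Nat.card_eq_fintype_card, Fintype.card_subtype]

section srg

variable {X : Type*} [Finite X] (hX : Nat.card X = 22) (R : X → X → Prop)
  (hsymm : ∀ a c, R a c → R c a) (hirr : ∀ a, ¬ R a a) (hk : ∀ a, Nat.card {c // R a c} = 6)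
  (l m : ℕ) (hl : ∀ a c, R a c → Nat.card {d // R a d ∧ R c d} = l)
  (hm : ∀ a c, a ≠ c → ¬ R a c → Nat.card {d // R a d ∧ R c d} = m)

include hX hsymm hirr hk hl hm

/-- [S3] a disjoint union of `K_7`: `7 ∣ 22` -/
theorem srg_50 (h5 : l = 5) (h0 : m = 0) : False := by
  classical
  have := Fintype.ofFinite X
  have hk' : ∀ x, (Finset.univ.filter (fun c => R x c)).card = 6 := fun x => by
    rw [← S3_card]; exact hk x
  have hXc : (Finset.univ : Finset X).card = 22 := by
    rw [Finset.card_univ, ← Nat.card_eq_fintype_card]; exact hX
  have step : ∀ a c d, R a c → R a d → d ≠ c → R c d := by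
    intro a c d hac had hdc
    have h1 : (Finset.univ.filter (fun x => R a x ∧ R c x)).card = 5 := by
      rw [← S3_card, hl a c hac, h5]
    have h2 : Finset.univ.filter (fun x => R a x ∧ R c x) ⊆
        (Finset.univ.filter (fun x => R a x)).erase c := by
      intro x hx
      simp only [Finset.mem_filter, Finset.mem_univ, true_and, Finset.mem_erase] at hx ⊢
      exact ⟨fun h => hirr c (h ▸ hx.2), hx.1⟩
    have h3 : ((Finset.univ.filter (fun x => R a x)).erase c).card = 5 := by
      rw [Finset.card_erase_of_mem (by simp [hac]), hk']
    have h4 := Finset.eq_of_subset_of_card_le h2 (by rw [h1, h3])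
    have h6 : d ∈ (Finset.univ.filter (fun x => R a x)).erase c := by simp [had, hdc]
    rw [← h4] at h6
    simp only [Finset.mem_filter, Finset.mem_univ, true_and] at h6
    exact h6.2
  let s : Setoid X :=
    { r := fun a c => a = c ∨ R a c
      iseqv :=
        { refl := fun a => Or.inl rfl
          symm := by
            rintro a c (h | h)
            · exact Or.inl h.symm
            · exact Or.inr (hsymm _ _ h)
          trans := by
            rintro a c d (h | h) (h' | h')
            · exact Or.inl (h.trans h')
            · exact Or.inr (h ▸ h')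
            · exact Or.inr (h' ▸ h)
            · by_cases had : a = d
              · exact Or.inl had
              · exact Or.inr (step c a d (hsymm _ _ h) h' (Ne.symm had)) } }
  have hfib := Finset.card_eq_sum_card_fiberwise (f := fun x : X => (Quotient.mk s x))
    (s := Finset.univ) (t := Finset.univ) (fun _ _ => Finset.mem_coe.2 (Finset.mem_univ _))
  have h7 : ∀ q : Quotient s, (Finset.univ.filter (fun x : X => Quotient.mk s x = q)).card = 7 := by
    intro q
    obtain ⟨a, rfl⟩ := Quotient.exists_rep q
    have h1 : Finset.univ.filter (fun x : X => Quotient.mk s x = Quotient.mk s a) =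
        insert a (Finset.univ.filter (fun c => R a c)) := by
      ext x
      simp only [Finset.mem_filter, Finset.mem_univ, true_and, Finset.mem_insert]
      rw [Quotient.eq]
      constructor
      · rintro (h | h)
        · exact Or.inl h
        · exact Or.inr (hsymm _ _ h)
      · rintro (h | h)
        · exact Or.inl h
        · exact Or.inr (hsymm _ _ h)
    rw [h1, Finset.card_insert_of_notMem (by simp [hirr a]), hk']
  rw [Finset.sum_congr rfl (fun q _ => h7 q), Finset.sum_const, hXc, smul_eq_mul] at hfib
  omega

end srg

end Cfsg.Agent.Lib.Helper92.M22
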