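import Mathlib
import Cfsg.Agent.Lib.Helper92.M22.Defs
import Cfsg.Agent.Lib.Helper92.M22.S1
import Cfsg.Agent.Lib.Helper92.M22.S2
import Cfsg.Agent.Lib.Helper92.M22.S3

set_option autoImplicit false

namespace Cfsg.Agent.Lib.Helper92.M22

variable {X : Type*} [Finite X] (hX : Nat.card X = 22) (R : X → X → Prop)
  (hsymm : ∀ a c, R a c → R c a) (hirr : ∀ a, ¬ R a a) (hk : ∀ a, Nat.card {c // R a c} = 6)
  (l m : ℕ) (hl : ∀ a c, R a c → Nat.card {d // R a d ∧ R c d} = l)
  (hm : ∀ a c, a ≠ c → ¬ R a c → Nat.card {d // R a d ∧ R c d} = m)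

include hX hsymm hirr hk hl hm

/-- [SRG] there is no strongly regular graph on 22 vertices of valency 6 -/
theorem srg_false : False := by
  have h1 := srg_count hX R hsymm hirr hk l m hl hm
  have h2 : (l = 0 ∧ m = 2) ∨ (l = 5 ∧ m = 0) := by omega
  rcases h2 with ⟨h, h'⟩ | ⟨h, h'⟩
  · exact srg_02 hX R hsymm hirr hk l m hl hm h h'
  · exact srg_50 hX R hsymm hirr hk l m hl hm h h'

end Cfsg.Agent.Lib.Helper92.M22
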