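import Mathlib
import Cfsg.Agent.Lib.Helper92.M22.Defs

set_option autoImplicit false

namespace Cfsg.Agent.Lib.Helper92.M22

variable {G X : Type*} [Group G] [Finite G] [MulAction G X] [Finite X]

/-- [X1] -/
theorem orbit_dvd (h : Hyp G X) (a : X) : 11 ∣ Nat.card ↥(MulAction.orbit G a) := by
  have _ : Fact (Nat.Prime 11) := ⟨by norm_num⟩
  obtain ⟨t, ht⟩ := exists_prime_orderOf_dvd_card' (G := G) 11 (by rw [h.cardG]; norm_num)
  have hP : IsPGroup 11 (Subgroup.zpowers t) :=
    IsPGroup.of_card (n := 1) (by rw [Nat.card_zpowers, ht, pow_one])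
  have h1 := hP.card_modEq_card_fixedPoints ↥(MulAction.orbit G a)
  have h2 : IsEmpty (MulAction.fixedPoints (Subgroup.zpowers t) ↥(MulAction.orbit G a)) := by
    constructor
    rintro ⟨x, hx⟩
    have h3 := hx ⟨t, Subgroup.mem_zpowers t⟩
    have h4 : t • (x : X) = x := congrArg Subtype.val h3
    exact h.h11 t ht x h4
  have h5 : Nat.card (MulAction.fixedPoints (Subgroup.zpowers t) ↥(MulAction.orbit G a)) = 0 :=
    Nat.card_of_isEmpty
  rw [h5] at h1
  exact (Nat.modEq_zero_iff_dvd).1 h1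

end Cfsg.Agent.Lib.Helper92.M22
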