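import Mathlib
import Cfsg.Agent.Lib.Helper92.M22.Defs
import Cfsg.Agent.Lib.Helper92.M22.X1

set_option autoImplicit false

namespace Cfsg.Agent.Lib.Helper92.M22

variable {G X : Type*} [Group G] [Finite G] [MulAction G X] [Finite X]

omit [Finite X] in
theorem X2_orbit_mul {H : Type*} [Group H] [Finite H] [MulAction H X] (a : X) :
    Nat.card ↥(MulAction.orbit H a) * Nat.card ↥(MulAction.stabilizer H a) = Nat.card H := by
  rw [Nat.card_congr (MulAction.orbitEquivQuotientStabilizer H a)]
  exact (Subgroup.card_eq_card_quotient_mul_card_subgroup _).symm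

omit [Finite G] [Finite X] in
theorem X2_stab (a c : X) :
    Nat.card ↥(MulAction.stabilizer ↥(MulAction.stabilizer G a) c) =
      Nat.card ↥(MulAction.stabilizer G a ⊓ MulAction.stabilizer G c) := by
  have h1 : MulAction.stabilizer ↥(MulAction.stabilizer G a) c =
      (MulAction.stabilizer G a ⊓ MulAction.stabilizer G c).subgroupOf (MulAction.stabilizer G a) := by
    ext g
    rw [Subgroup.mem_subgroupOf, Subgroup.mem_inf, MulAction.mem_stabilizer_iff,
      MulAction.mem_stabilizer_iff, MulAction.mem_stabilizer_iff]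
    constructor
    · intro hg
      exact ⟨g.2, hg⟩
    · intro hg
      exact hg.2
  rw [h1]
  exact Nat.card_congr (Subgroup.subgroupOfEquivOfLe inf_le_left).toEquiv

/-- the order of a point stabiliser -/
theorem X2_card_stab (h : Hyp G X) (a : X) :
    Nat.card ↥(MulAction.stabilizer G a) = 720 ∨ Nat.card ↥(MulAction.stabilizer G a) = 360 := by
  have h1 := X2_orbit_mul (H := G) a
  rw [h.cardG] at h1
  obtain ⟨k, hk⟩ := orbit_dvd h a
  have h2 : Nat.card ↥(MulAction.orbit G a) ≤ 22 := by
    rw [← h.cardX]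
    exact Finite.card_subtype_le _
  rw [hk] at h1 h2
  have hk2 : k ≤ 2 := by omega
  interval_cases k
  · simp at h1
  · left; omega
  · right; omega

/-- [X2] -/
theorem three_dvd (h : Hyp G X) (a c : X) (hac : a ≠ c) : 3 ∣ sz G a c := by
  by_contra h3
  have h1 := X2_orbit_mul (H := ↥(MulAction.stabilizer G a)) c
  rw [X2_stab] at h1
  have h2 := h.h960 a c hac
  have h4 : 9 ∣ Nat.card ↥(MulAction.stabilizer G a) := by
    rcases X2_card_stab h a with h5 | h5 <;> rw [h5] <;> decide
  rw [← h1] at h4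
  have h6 : Nat.Coprime (3 ^ 2) (sz G a c) :=
    Nat.Coprime.pow_left 2 ((Nat.Prime.coprime_iff_not_dvd Nat.prime_three).2 h3)
  have h7 : 9 ∣ Nat.card ↥(MulAction.stabilizer G a ⊓ MulAction.stabilizer G c) :=
    (Nat.Coprime.dvd_mul_left h6).1 h4
  have h8 : 9 ∣ 960 := dvd_trans h7 h2
  revert h8
  decide

end Cfsg.Agent.Lib.Helper92.M22
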