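import Mathlib
import Cfsg.Agent.Lib.Helper92.M22.Defs
import Cfsg.Agent.Lib.Helper92.M22.X1
import Cfsg.Agent.Lib.Helper92.M22.X2

set_option autoImplicit false

namespace Cfsg.Agent.Lib.Helper92.M22

variable {G X : Type*} [Group G] [Finite G] [MulAction G X] [Finite X]

theorem X3_orbit (h : Hyp G X) (a : X) : Nat.card ↥(MulAction.orbit G a) = 22 := by
  have h1 := X2_orbit_mul (H := G) a
  rw [h.cardG] at h1
  rcases X2_card_stab h a with h2 | h2
  · exfalso
    rw [h2] at h1
    have h11 : Nat.card ↥(MulAction.orbit G a) = 11 := by omega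
    have : Fact (Nat.Prime 3) := ⟨Nat.prime_three⟩
    obtain ⟨K, hK⟩ := Sylow.exists_subgroup_card_pow_prime (G := ↥(MulAction.stabilizer G a)) 3
      (n := 2) (by rw [h2]; decide)
    have hT : Nat.card ↥(K.map (MulAction.stabilizer G a).subtype) = 9 := by
      rw [Subgroup.card_map_of_injective (Subgroup.subtype_injective _), hK]; norm_num
    have hTle : K.map (MulAction.stabilizer G a).subtype ≤ MulAction.stabilizer G a :=
      Subgroup.map_subtype_le K
    generalize K.map (MulAction.stabilizer G a).subtype = T at hT hTle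
    have hTp : IsPGroup 3 T := IsPGroup.of_card (n := 2) (by rw [hT]; norm_num)
    have hmod := hTp.card_modEq_card_fixedPoints ↥(MulAction.orbit G a)
    rw [h11] at hmod
    have hge : 1 < Nat.card ↥(MulAction.fixedPoints T ↥(MulAction.orbit G a)) := by
      unfold Nat.ModEq at hmod
      omega
    have hnt : Nontrivial ↥(MulAction.fixedPoints T ↥(MulAction.orbit G a)) :=
      Finite.one_lt_card_iff_nontrivial.1 hge
    obtain ⟨u, v, huv⟩ := exists_pair_ne ↥(MulAction.fixedPoints T ↥(MulAction.orbit G a))
    have hex : ∃ c : ↥(MulAction.fixedPoints T ↥(MulAction.orbit G a)), ((c : ↥(MulAction.orbit G a)) : X) ≠ a := by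
      by_contra hh
      push Not at hh
      apply huv
      apply Subtype.ext
      apply Subtype.ext
      rw [hh u, hh v]
    obtain ⟨c, hc⟩ := hex
    have hle : T ≤ MulAction.stabilizer G a ⊓ MulAction.stabilizer G ((c : ↥(MulAction.orbit G a)) : X) := by
      refine le_inf hTle ?_
      intro t ht
      rw [MulAction.mem_stabilizer_iff]
      have := c.2 ⟨t, ht⟩
      exact congrArg Subtype.val this
    have h9 : 9 ∣ 960 := by
      rw [← hT]
      exact (Subgroup.card_dvd_of_le hle).trans (h.h960 a _ (Ne.symm hc))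
    revert h9
    decide
  · rw [h2] at h1
    omega

/-- [X3] -/
theorem trans (h : Hyp G X) : MulAction.IsPretransitive G X := by
  constructor
  intro x y
  have h1 := X3_orbit h x
  have h2 : MulAction.orbit G x = Set.univ := by
    rw [Set.eq_univ_iff_ncard, ← Nat.card_coe_set_eq, h1, h.cardX]
  have h3 : y ∈ MulAction.orbit G x := by rw [h2]; exact Set.mem_univ y
  exact h3

end Cfsg.Agent.Lib.Helper92.M22
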