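import Mathlib
import Cfsg.Agent.Lib.Helper92.M22.Defs
import Cfsg.Agent.Lib.Helper92.M22.X2
import Cfsg.Agent.Lib.Helper92.M22.X3

set_option autoImplicit false
set_option linter.style.haveILetI false

namespace Cfsg.Agent.Lib.Helper92.M22

theorem X4_mod {S X : Type*} [Group S] [MulAction S X] [Finite X] (p : ℕ) [Fact p.Prime] (s : S)
    (hs : orderOf s = p) (c : X) :
    Nat.card (MulAction.orbit S c)
      ≡ Nat.card {x : X // x ∈ MulAction.orbit S c ∧ s • x = x} [MOD p] := by
  have hP : IsPGroup p (Subgroup.zpowers s) := by
    apply IsPGroup.of_card (n := 1)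
    rw [Nat.card_zpowers, hs, pow_one]
  have h1 := hP.card_modEq_card_fixedPoints (MulAction.orbit S c)
  refine h1.trans ?_
  have h2 : Nat.card (MulAction.fixedPoints (Subgroup.zpowers s) (MulAction.orbit S c))
      = Nat.card {x : X // x ∈ MulAction.orbit S c ∧ s • x = x} := by
    apply Nat.card_congr
    refine
      { toFun := fun x => ⟨x.1.1, x.1.2, ?_⟩
        invFun := fun x => ⟨⟨x.1, x.2.1⟩, ?_⟩
        left_inv := fun x => rfl
        right_inv := fun x => rfl }
    · have h3 := x.2 ⟨s, Subgroup.mem_zpowers s⟩
      exact congrArg Subtype.val h3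
    · intro m
      apply Subtype.ext
      have h3 : Subgroup.zpowers s ≤ MulAction.stabilizer S x.1 := by
        rw [Subgroup.zpowers_le]
        exact x.2.2
      exact h3 m.2
  rw [h2]

variable {G X : Type*} [Group G] [Finite G] [MulAction G X] [Finite X]

/-- [X4] the suborbits: 1 + 6 + 15 -/
theorem suborbits (h : Hyp G X) (a : X) :
    (∃ c, a ≠ c ∧ sz G a c = 6) ∧ (∀ c, a ≠ c → sz G a c = 6 ∨ sz G a c = 15) ∧
      ∀ c d, a ≠ c → a ≠ d → sz G a c = sz G a d → ∃ g : G, g • a = a ∧ g • c = d := by
  haveI := trans h
  haveI : Fact (Nat.Prime 5) := ⟨by norm_num⟩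
  have hS : Nat.card (MulAction.stabilizer G a) = 360 := by
    have h1 := MulAction.index_stabilizer_of_transitive G a
    have h2 := Subgroup.card_mul_index (MulAction.stabilizer G a)
    rw [h1, h.cardX, h.cardG] at h2
    omega
  obtain ⟨s, hs⟩ := exists_prime_orderOf_dvd_card' (G := MulAction.stabilizer G a) 5
    (by rw [hS]; norm_num)
  have hsG : orderOf (s : G) = 5 := by rw [Subgroup.orderOf_coe]; exact hs
  have hfix := h.h5 (s : G) hsG
  have hsa : (s : G) • a = a := s.2
  obtain ⟨a', ha', huniq⟩ := (Nat.card_eq_two_iff' (⟨a, hsa⟩ : {x : X // (s : G) • x = x})).1 hfix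
  have ha'a : a'.1 ≠ a := fun e => ha' (Subtype.ext e)
  have huniq' : ∀ x : X, (s : G) • x = x → x ≠ a → x = a'.1 := by
    intro x hx hxa
    have := huniq ⟨x, hx⟩ (fun e => hxa (congrArg Subtype.val e))
    exact congrArg Subtype.val this
  -- a is not in the orbit of c
  have hnot : ∀ c, a ≠ c → a ∉ MulAction.orbit (MulAction.stabilizer G a) c := by
    rintro c hac ⟨g, hg⟩
    apply hac
    have h1 : (g : G) • c = a := hg
    have h2 : (g : G) • a = a := g.2
    have h3 : (g : G) • c = (g : G) • a := h1.trans h2.symm
    exact (MulAction.injective (g : G) h3).symm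
  have hle : ∀ c, a ≠ c → sz G a c ≤ 21 := by
    intro c hac
    have h1 : Nat.card (MulAction.orbit (MulAction.stabilizer G a) c)
        = (MulAction.orbit (MulAction.stabilizer G a) c).ncard := rfl
    have h2 : (MulAction.orbit (MulAction.stabilizer G a) c) ⊆ ({a}ᶜ : Set X) := by
      intro x hx hxa
      rw [Set.mem_singleton_iff] at hxa
      exact hnot c hac (hxa ▸ hx)
    have h3 := Set.ncard_le_ncard h2 (Set.toFinite _)
    have h4 : ({a}ᶜ : Set X).ncard = 21 := by
      rw [Set.ncard_compl, Set.ncard_singleton, h.cardX]
    unfold sz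
    rw [h1]
    omega
  have hpos : ∀ c, 0 < sz G a c := by
    intro c
    unfold sz
    haveI : Nonempty (MulAction.orbit (MulAction.stabilizer G a) c) :=
      ⟨⟨c, MulAction.mem_orbit_self c⟩⟩
    exact Nat.card_pos
  have hdvd : ∀ c, sz G a c ∣ 360 := by
    intro c
    have h1 := MulAction.index_stabilizer (MulAction.stabilizer G a) c
    have h2 := Subgroup.index_dvd_card (MulAction.stabilizer (MulAction.stabilizer G a) c)
    rw [h1, hS] at h2
    exact h2
  have hin : ∀ c, a ≠ c → a'.1 ∈ MulAction.orbit (MulAction.stabilizer G a) c → sz G a c = 6 := by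
    intro c hac hmem
    have h1 := X4_mod 5 s hs c
    have h2 : Nat.card {x : X // x ∈ MulAction.orbit (MulAction.stabilizer G a) c ∧ s • x = x}
        = 1 := by
      rw [Nat.card_eq_one_iff_exists]
      refine ⟨⟨a'.1, hmem, a'.2⟩, ?_⟩
      intro y
      apply Subtype.ext
      apply huniq' y.1 y.2.2
      intro e
      have h7 := y.2.1
      rw [e] at h7
      exact hnot c hac h7
    rw [h2] at h1
    have h3 := three_dvd h a c hac
    have h4 := hle c hac
    have h5 := hdvd c
    have h6 : sz G a c % 5 = 1 := h1
    generalize sz G a c = n at h3 h4 h5 h6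
    interval_cases n <;> omega
  have hout : ∀ c, a ≠ c → a'.1 ∉ MulAction.orbit (MulAction.stabilizer G a) c →
      sz G a c = 15 := by
    intro c hac hmem
    have h1 := X4_mod 5 s hs c
    have h2 : Nat.card {x : X // x ∈ MulAction.orbit (MulAction.stabilizer G a) c ∧ s • x = x}
        = 0 := by
      haveI : IsEmpty {x : X // x ∈ MulAction.orbit (MulAction.stabilizer G a) c ∧ s • x = x} := by
        refine ⟨fun y => ?_⟩
        apply hmem
        have h3 : y.1 = a'.1 := by
          apply huniq' y.1 y.2.2
          intro e
          have h7 := y.2.1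
          rw [e] at h7
          exact hnot c hac h7
        have h8 := y.2.1
        rw [h3] at h8
        exact h8
      exact Nat.card_of_isEmpty
    rw [h2] at h1
    have h3 := three_dvd h a c hac
    have h4 := hle c hac
    have h5 := hpos c
    have h6 : sz G a c % 5 = 0 := h1
    omega
  refine ⟨⟨a'.1, ha'a.symm, hin a'.1 ha'a.symm (MulAction.mem_orbit_self _)⟩, ?_, ?_⟩
  · intro c hac
    by_cases hmem : a'.1 ∈ MulAction.orbit (MulAction.stabilizer G a) c
    · exact Or.inl (hin c hac hmem)
    · exact Or.inr (hout c hac hmem)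
  · intro c d hac had hcd
    have key : d ∈ MulAction.orbit (MulAction.stabilizer G a) c := by
      by_cases hc : a'.1 ∈ MulAction.orbit (MulAction.stabilizer G a) c
      · by_cases hd : a'.1 ∈ MulAction.orbit (MulAction.stabilizer G a) d
        · have h1 := MulAction.orbit_eq_iff.2 hc
          have h2 := MulAction.orbit_eq_iff.2 hd
          rw [← h1, h2]
          exact MulAction.mem_orbit_self d
        · have h1 := hin c hac hc
          have h2 := hout d had hd
          omega
      · by_cases hd : a'.1 ∈ MulAction.orbit (MulAction.stabilizer G a) d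
        · have h1 := hout c hac hc
          have h2 := hin d had hd
          omega
        · have h1 := hout c hac hc
          have h2 := hout d had hd
          rcases MulAction.orbit.eq_or_disjoint (G := MulAction.stabilizer G a) c d with he | hdis
          · rw [he]
            exact MulAction.mem_orbit_self d
          · exfalso
            have h3 := Set.ncard_union_eq hdis (Set.toFinite _) (Set.toFinite _)
            have h4 : (MulAction.orbit (MulAction.stabilizer G a) c ∪
                MulAction.orbit (MulAction.stabilizer G a) d).ncard ≤ Nat.card X := by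
              rw [← Set.ncard_univ]
              exact Set.ncard_le_ncard (Set.subset_univ _) (Set.toFinite _)
            have h5 : (MulAction.orbit (MulAction.stabilizer G a) c).ncard = 15 := h1
            have h6 : (MulAction.orbit (MulAction.stabilizer G a) d).ncard = 15 := h2
            rw [h.cardX] at h4
            omega
    obtain ⟨g, hg⟩ := key
    exact ⟨(g : G), g.2, hg⟩

end Cfsg.Agent.Lib.Helper92.M22
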