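import Mathlib
import Cfsg.Agent.Lib.Helper92.M22.Defs
import Cfsg.Agent.Lib.Helper92.M22.X3

set_option autoImplicit false

namespace Cfsg.Agent.Lib.Helper92.M22

variable {G X : Type*} [Group G] [Finite G] [MulAction G X] [Finite X]

omit [Finite X] in
theorem X5_sz_mul (a c : X) :
    sz G a c * Nat.card ↥(MulAction.stabilizer G a ⊓ MulAction.stabilizer G c) =
      Nat.card ↥(MulAction.stabilizer G a) := by
  have h1 : MulAction.stabilizer ↥(MulAction.stabilizer G a) c =
      (MulAction.stabilizer G a ⊓ MulAction.stabilizer G c).subgroupOf (MulAction.stabilizer G a) := by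
    ext s
    rw [Subgroup.mem_subgroupOf, Subgroup.mem_inf, MulAction.mem_stabilizer_iff,
      MulAction.mem_stabilizer_iff, MulAction.mem_stabilizer_iff]
    constructor
    · intro hs
      exact ⟨s.2, hs⟩
    · intro hs
      exact hs.2
  have h2 : Nat.card ↥(MulAction.stabilizer ↥(MulAction.stabilizer G a) c) =
      Nat.card ↥(MulAction.stabilizer G a ⊓ MulAction.stabilizer G c) := by
    rw [h1]
    exact Nat.card_congr (Subgroup.subgroupOfEquivOfLe inf_le_left).toEquiv
  unfold sz
  rw [Nat.card_coe_set_eq, ← MulAction.index_stabilizer, ← h2, mul_comm]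
  exact Subgroup.card_mul_index _

theorem X5_card_stab (h : Hyp G X) (a : X) : 22 * Nat.card ↥(MulAction.stabilizer G a) = 7920 := by
  have := trans h
  have h1 : (MulAction.stabilizer G a).index = 22 := by
    rw [MulAction.index_stabilizer, MulAction.orbit_eq_univ, Set.ncard_univ, h.cardX]
  rw [← h1, ← h.cardG, mul_comm]
  exact Subgroup.card_mul_index _

/-- [X5] -/
theorem sz_symm (h : Hyp G X) (a c : X) : sz G a c = sz G c a := by
  have h1 := X5_sz_mul (G := G) a c
  have h2 := X5_sz_mul (G := G) c a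
  rw [inf_comm] at h2
  have h3 := X5_card_stab h a
  have h4 := X5_card_stab h c
  have h5 : Nat.card ↥(MulAction.stabilizer G a) = Nat.card ↥(MulAction.stabilizer G c) := by omega
  rw [← h5, ← h1] at h2
  have hpos : 0 < Nat.card ↥(MulAction.stabilizer G a ⊓ MulAction.stabilizer G c) := Nat.card_pos
  exact (Nat.eq_of_mul_eq_mul_right hpos h2).symm

omit [Finite G] [Finite X] in
/-- [X5] -/
theorem sz_smul (g : G) (a c : X) : sz G (g • a) (g • c) = sz G a c := by
  unfold sz
  symm
  refine Nat.card_congr (Equiv.subtypeEquiv (MulAction.toPerm g) ?_)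
  intro x
  rw [MulAction.toPerm_apply]
  constructor
  · rintro ⟨s, rfl⟩
    refine ⟨⟨g * s.1 * g⁻¹, ?_⟩, ?_⟩
    · rw [MulAction.mem_stabilizer_iff, mul_smul, mul_smul, inv_smul_smul]
      have := s.2
      rw [MulAction.mem_stabilizer_iff] at this
      rw [this]
    · show (g * s.1 * g⁻¹) • g • c = g • (s.1 • c)
      rw [mul_smul, mul_smul, inv_smul_smul]
  · rintro ⟨s, hs⟩
    refine ⟨⟨g⁻¹ * s.1 * g, ?_⟩, ?_⟩
    · rw [MulAction.mem_stabilizer_iff, mul_smul, mul_smul]
      have := s.2
      rw [MulAction.mem_stabilizer_iff] at this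
      rw [this, inv_smul_smul]
    · show (g⁻¹ * s.1 * g) • c = x
      have hs' : s.1 • g • c = g • x := hs
      rw [mul_smul, mul_smul, hs', inv_smul_smul]

end Cfsg.Agent.Lib.Helper92.M22
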