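import Mathlib
import Cfsg.Agent.Lib.Helper92.M22.Defs
import Cfsg.Agent.Lib.Helper92.M22.X4
import Cfsg.Agent.Lib.Helper92.M22.X5

set_option autoImplicit false

namespace Cfsg.Agent.Lib.Helper92.M22

variable {G X : Type*} [Group G] [Finite G] [MulAction G X] [Finite X]

/-- [X6a] valency -/
theorem adj_card (h : Hyp G X) (a : X) : Nat.card {c // Adj G a c} = 6 := by
  obtain ⟨⟨c0, hac0, hsz0⟩, -, h3⟩ := suborbits h a
  rw [← hsz0]
  unfold sz
  refine Nat.card_congr (Equiv.subtypeEquivRight ?_)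
  intro c
  constructor
  · rintro ⟨hac, hsz⟩
    obtain ⟨g, hga, hgc⟩ := h3 c0 c hac0 hac (by rw [hsz0, hsz])
    exact ⟨⟨g, hga⟩, hgc⟩
  · rintro ⟨⟨s, hs⟩, rfl⟩
    rw [MulAction.mem_stabilizer_iff] at hs
    show Adj G a (s • c0)
    refine ⟨?_, ?_⟩
    · intro hh
      apply hac0
      have : s • a = s • c0 := by rw [hs]; exact hh
      exact smul_left_cancel _ this
    · have := sz_smul (G := G) s a c0
      rw [hs] at this
      rw [this, hsz0]

end Cfsg.Agent.Lib.Helper92.M22
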