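import Mathlib
import Cfsg.Agent.Lib.Helper92.M22.Defs
import Cfsg.Agent.Lib.Helper92.M22.X3
import Cfsg.Agent.Lib.Helper92.M22.X4
import Cfsg.Agent.Lib.Helper92.M22.X5

set_option autoImplicit false

namespace Cfsg.Agent.Lib.Helper92.M22

variable {G X : Type*} [Group G] [Finite G] [MulAction G X] [Finite X]

omit [Finite G] [Finite X] in
theorem X6b_adj_smul (g : G) (a c : X) : Adj G (g • a) (g • c) ↔ Adj G a c := by
  unfold Adj
  rw [sz_smul, Ne, Ne, smul_left_cancel_iff]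

omit [Finite G] [Finite X] in
theorem X6b_card_smul (g : G) (a c : X) :
    Nat.card {d // Adj G (g • a) d ∧ Adj G (g • c) d} = Nat.card {d // Adj G a d ∧ Adj G c d} := by
  symm
  refine Nat.card_congr (Equiv.subtypeEquiv (MulAction.toPerm g) ?_)
  intro d
  rw [MulAction.toPerm_apply, X6b_adj_smul, X6b_adj_smul]

theorem X6b_key (h : Hyp G X) (a c a' c' : X) (hac : a ≠ c) (hac' : a' ≠ c')
    (hsz : sz G a c = sz G a' c') :
    Nat.card {d // Adj G a d ∧ Adj G c d} = Nat.card {d // Adj G a' d ∧ Adj G c' d} := by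
  have := trans h
  obtain ⟨g1, hg1⟩ := MulAction.exists_smul_eq G a a'
  have h1 : a' ≠ g1 • c := by
    rw [← hg1]
    intro hh
    exact hac (smul_left_cancel _ hh)
  have h2 : sz G a' (g1 • c) = sz G a' c' := by
    rw [← hsz]
    conv_lhs => rw [← hg1]
    rw [sz_smul]
  obtain ⟨g2, hg2a, hg2c⟩ := (suborbits h a').2.2 (g1 • c) c' h1 hac' h2
  rw [← X6b_card_smul g1 a c, hg1, ← X6b_card_smul g2 a' (g1 • c), hg2a, hg2c]

/-- [X6b] the parameters are constant -/
theorem adj_const (h : Hyp G X) : ∃ l m : ℕ,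
    (∀ a c : X, Adj G a c → Nat.card {d // Adj G a d ∧ Adj G c d} = l) ∧
    (∀ a c : X, a ≠ c → ¬ Adj G a c → Nat.card {d // Adj G a d ∧ Adj G c d} = m) := by
  have hl : ∃ l : ℕ, ∀ a c : X, Adj G a c → Nat.card {d // Adj G a d ∧ Adj G c d} = l := by
    by_cases hex : ∃ a c : X, Adj G a c
    · obtain ⟨a0, c0, h0⟩ := hex
      refine ⟨_, fun a c hac => X6b_key h a c a0 c0 hac.1 h0.1 (by rw [hac.2, h0.2])⟩
    · push Not at hex
      exact ⟨0, fun a c hac => absurd hac (hex a c)⟩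
  have hm : ∃ m : ℕ, ∀ a c : X, a ≠ c → ¬ Adj G a c →
      Nat.card {d // Adj G a d ∧ Adj G c d} = m := by
    have h15 : ∀ a c : X, a ≠ c → ¬ Adj G a c → sz G a c = 15 := by
      intro a c hac hn
      rcases (suborbits h a).2.1 c hac with h6 | h15
      · exact absurd ⟨hac, h6⟩ hn
      · exact h15
    by_cases hex : ∃ a c : X, a ≠ c ∧ ¬ Adj G a c
    · obtain ⟨a0, c0, h0, h0'⟩ := hex
      refine ⟨_, fun a c hac hn => X6b_key h a c a0 c0 hac h0 (by
        rw [h15 a c hac hn, h15 a0 c0 h0 h0'])⟩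
    · push Not at hex
      exact ⟨0, fun a c hac hn => absurd (hex a c hac) hn⟩
  obtain ⟨l, hl⟩ := hl
  obtain ⟨m, hm⟩ := hm
  exact ⟨l, m, hl, hm⟩

end Cfsg.Agent.Lib.Helper92.M22
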