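import Mathlib
import Cfsg.Agent.Lib.Helper92.M22.Defs
import Cfsg.Agent.Lib.Helper92.M22.SRG
import Cfsg.Agent.Lib.Helper92.M22.X5
import Cfsg.Agent.Lib.Helper92.M22.X6a
import Cfsg.Agent.Lib.Helper92.M22.X6b

set_option autoImplicit false

namespace Cfsg.Agent.Lib.Helper92.M22

variable {G X : Type*} [Group G] [Finite G] [MulAction G X] [Finite X]

/-- [X] no group of order 7920 acts on 22 points like a subgroup of `M22` -/
theorem hyp_false (h : Hyp G X) : False := by
  obtain ⟨l, m, hl, hm⟩ := adj_const h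
  exact srg_false h.cardX (Adj G) (fun a c hac => ⟨hac.1.symm, by rw [sz_symm h]; exact hac.2⟩)
    (fun a ha => ha.1 rfl) (adj_card h) l m hl hm

end Cfsg.Agent.Lib.Helper92.M22
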